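import Cfsg.Agent.LS.Defs2

/-! Project LS (notes/LS.md): the unitriangular group over `F[θ] / (θ² + θ + B)`. -/

set_option autoImplicit false
set_option linter.unusedSectionVars false
set_option linter.unusedVariables false

namespace Cfsg.Agent.LS

open Subgroup H29
open scoped commutatorElement

variable {G : Type*} [Group G] [Finite G] {B : F} {X₁ X₂ Y : F × F → G}

theorem pu_two (α : F × F) : α + α = 0 := Prod.ext (SA.two _) (SA.two _)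

theorem pu_ml0 (B : F) (β : F × F) : ml B 0 β = 0 := by simp [ml]

theorem pu_ml0' (B : F) (β : F × F) : ml B β 0 = 0 := by simp [ml]

theorem pu_ml1 (B : F) (β : F × F) : ml B (1, 0) β = β := by simp [ml]

theorem pu_ml1' (B : F) (β : F × F) : ml B β (1, 0) = β := by simp [ml]

theorem pu_mlc (B : F) (α β : F × F) : ml B α β = ml B β α := by
  simp only [ml]; ext <;> ring

theorem pu_ml4 (B : F) (a b c d : F × F) :
    ml B (ml B a b) (ml B c d) = ml B (ml B a d) (ml B c b) := by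
  simp only [ml]; ext <;> ring

/-- the normal form -/
def puP (X₁ X₂ Y : F × F → G) (α β γ : F × F) : G := X₁ α * X₂ β * Y γ

section
omit [Finite G]

theorem Co.x1z (h : Co B X₁ X₂ Y) : X₁ 0 = 1 := by simpa using h.x1 0 0

theorem Co.x2z (h : Co B X₁ X₂ Y) : X₂ 0 = 1 := by simpa using h.x2 0 0

theorem Co.yz (h : Co B X₁ X₂ Y) : Y 0 = 1 := by simpa using h.y 0 0

theorem Co.P_Y (h : Co B X₁ X₂ Y) (γ : F × F) : puP X₁ X₂ Y 0 0 γ = Y γ := by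
  rw [puP, h.x1z, h.x2z, one_mul, one_mul]

theorem Co.P_mul (h : Co B X₁ X₂ Y) (α β γ α' β' γ' : F × F) :
    puP X₁ X₂ Y α β γ * puP X₁ X₂ Y α' β' γ' =
      puP X₁ X₂ Y (α + α') (β + β') (γ + γ' + ml B α' β) := by
  have e : X₂ β * X₁ α' = X₁ α' * X₂ β * Y (ml B α' β) := by
    rw [h.cm, mul_assoc, ← h.y, pu_two, h.yz, mul_one]
  have yy : Y (ml B α' β) * (Y γ * Y γ') = Y γ * Y γ' * Y (ml B α' β) := by
    rw [← h.y, ← h.y, ← h.y, add_comm]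
  simp only [puP, h.x1, h.x2, h.y]
  calc X₁ α * X₂ β * Y γ * (X₁ α' * X₂ β' * Y γ')
      = X₁ α * X₂ β * (Y γ * (X₁ α' * X₂ β')) * Y γ' := by group
    _ = X₁ α * (X₂ β * X₁ α') * X₂ β' * (Y γ * Y γ') := by
      rw [((h.c1 α' γ).mul_right (h.c2 β' γ)).eq]; group
    _ = X₁ α * X₁ α' * X₂ β * (Y (ml B α' β) * X₂ β') * (Y γ * Y γ') := by rw [e]; group
    _ = X₁ α * X₁ α' * (X₂ β * X₂ β') * (Y (ml B α' β) * (Y γ * Y γ')) := by
      rw [(h.c2 β' _).eq]; group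
    _ = _ := by rw [yy]

theorem Co.P_mulY (h : Co B X₁ X₂ Y) (α β γ δ : F × F) :
    puP X₁ X₂ Y α β γ * Y δ = puP X₁ X₂ Y α β (γ + δ) := by
  rw [puP, puP, h.y, mul_assoc]

theorem Co.P_inv (h : Co B X₁ X₂ Y) (α β γ : F × F) :
    (puP X₁ X₂ Y α β γ)⁻¹ = puP X₁ X₂ Y α β (γ + ml B α β) := by
  refine inv_eq_of_mul_eq_one_right ?_
  rw [h.P_mul, pu_two, pu_two, h.P_Y, ← add_assoc, pu_two, zero_add, pu_two, h.yz]

theorem Co.P_inj (h : Co B X₁ X₂ Y) {α β γ α' β' γ' : F × F}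
    (e : puP X₁ X₂ Y α β γ = puP X₁ X₂ Y α' β' γ') : α = α' ∧ β = β' ∧ γ = γ' := by
  have t : ∀ a b : F × F, a + b = 0 → a = b := fun a b hab => by
    rw [← add_zero a, ← pu_two b, ← add_assoc, hab, zero_add]
  have := mul_inv_eq_one.2 e
  rw [h.P_inv, h.P_mul] at this
  obtain ⟨h1, h2, h3⟩ := h.inj _ _ _ this
  obtain rfl := t _ _ h1
  obtain rfl := t _ _ h2
  rw [add_assoc, add_assoc, pu_two, add_zero] at h3
  exact ⟨rfl, rfl, t _ _ h3⟩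

theorem Co.Y_inj (h : Co B X₁ X₂ Y) {γ γ' : F × F} (e : Y γ = Y γ') : γ = γ' :=
  (h.P_inj ((h.P_Y γ).trans (e.trans (h.P_Y γ').symm))).2.2

theorem Co.mem_U (h : Co B X₁ X₂ Y) {x : G} :
    x ∈ CoU X₁ X₂ Y ↔ ∃ α β γ, x = puP X₁ X₂ Y α β γ := by
  constructor
  · intro hx
    induction hx using closure_induction with
    | mem x hx =>
      rcases hx with (⟨α, rfl⟩ | ⟨β, rfl⟩) | ⟨γ, rfl⟩
      · exact ⟨α, 0, 0, by rw [puP, h.x2z, h.yz, mul_one, mul_one]⟩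
      · exact ⟨0, β, 0, by rw [puP, h.x1z, h.yz, mul_one, one_mul]⟩
      · exact ⟨0, 0, γ, (h.P_Y γ).symm⟩
    | one => exact ⟨0, 0, 0, by rw [h.P_Y, h.yz]⟩
    | mul x y _ _ hx hy =>
      obtain ⟨α, β, γ, rfl⟩ := hx
      obtain ⟨α', β', γ', rfl⟩ := hy
      exact ⟨_, _, _, h.P_mul ..⟩
    | inv x _ hx =>
      obtain ⟨α, β, γ, rfl⟩ := hx
      exact ⟨_, _, _, h.P_inv ..⟩
  · rintro ⟨α, β, γ, rfl⟩
    exact mul_mem (mul_mem (subset_closure (Or.inl (Or.inl ⟨α, rfl⟩)))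
      (subset_closure (Or.inl (Or.inr ⟨β, rfl⟩)))) (subset_closure (Or.inr ⟨γ, rfl⟩))

theorem Co.mem_W (h : Co B X₁ X₂ Y) {x : G} : x ∈ CoW Y ↔ ∃ γ, x = Y γ := by
  constructor
  · intro hx
    induction hx using closure_induction with
    | mem x hx => obtain ⟨γ, rfl⟩ := hx; exact ⟨γ, rfl⟩
    | one => exact ⟨0, h.yz.symm⟩
    | mul x y _ _ hx hy =>
      obtain ⟨γ, rfl⟩ := hx
      obtain ⟨γ', rfl⟩ := hy
      exact ⟨_, (h.y ..).symm⟩
    | inv x _ hx =>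
      obtain ⟨γ, rfl⟩ := hx
      exact ⟨γ, inv_eq_of_mul_eq_one_right (by rw [← h.y, pu_two, h.yz])⟩
  · rintro ⟨γ, rfl⟩
    exact subset_closure ⟨γ, rfl⟩

theorem Co.P_comm (h : Co B X₁ X₂ Y) (α β γ α' β' γ' : F × F) :
    puP X₁ X₂ Y α β γ * puP X₁ X₂ Y α' β' γ' =
      puP X₁ X₂ Y α' β' γ' * puP X₁ X₂ Y α β γ * Y (ml B α β' + ml B α' β) := by
  rw [h.P_mul, h.P_mul, h.P_mulY, add_comm α, add_comm β, add_comm γ, add_assoc (γ' + γ),
    ← add_assoc (ml B α β'), pu_two, zero_add]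

theorem Co.P_sq (h : Co B X₁ X₂ Y) (α β γ : F × F) :
    puP X₁ X₂ Y α β γ * puP X₁ X₂ Y α β γ = Y (ml B α β) := by
  rw [h.P_mul, pu_two, pu_two, pu_two, zero_add, h.P_Y]

end

theorem Co.uw (h : Co B X₁ X₂ Y) : UW (CoU X₁ X₂ Y) (CoW Y) := by
  refine ⟨closure_mono Set.subset_union_right, ?_, ?_, ?_, ?_, ?_⟩
  · rw [← Nat.card_congr (Equiv.ofBijective (fun p : (F × F) × (F × F) × (F × F) =>
      (⟨puP X₁ X₂ Y p.1 p.2.1 p.2.2, h.mem_U.2 ⟨_, _, _, rfl⟩⟩ : CoU X₁ X₂ Y)) ⟨fun p q e => by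
        obtain ⟨h1, h2, h3⟩ := h.P_inj (congrArg Subtype.val e)
        exact Prod.ext h1 (Prod.ext h2 h3), fun x => by
        obtain ⟨α, β, γ, e⟩ := h.mem_U.1 x.2
        exact ⟨(α, β, γ), Subtype.ext e.symm⟩⟩)]
    simp only [Nat.card_eq_fintype_card, Fintype.card_prod, F4.card_eq]
  · rw [← Nat.card_congr (Equiv.ofBijective (fun p : F × F =>
      (⟨Y p, h.mem_W.2 ⟨_, rfl⟩⟩ : CoW Y)) ⟨fun p q e => h.Y_inj (congrArg Subtype.val e), fun x => by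
        obtain ⟨γ, e⟩ := h.mem_W.1 x.2
        exact ⟨γ, Subtype.ext e.symm⟩⟩)]
    simp only [Nat.card_eq_fintype_card, Fintype.card_prod, F4.card_eq]
  · intro w hw x hx
    obtain ⟨γ, rfl⟩ := h.mem_W.1 hw
    obtain ⟨α, β, γ', rfl⟩ := h.mem_U.1 hx
    refine ((h.c1 _ _).mul_right (h.c2 _ _)).mul_right ?_
    rw [Commute, SemiconjBy, ← h.y, ← h.y, add_comm]
  · intro w hw
    obtain ⟨γ, rfl⟩ := h.mem_W.1 hw
    rw [← h.y, pu_two, h.yz]
  · intro x hx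
    obtain ⟨α, β, γ', rfl⟩ := h.mem_U.1 hx
    exact h.mem_W.2 ⟨_, h.P_sq ..⟩

theorem Co.cen (h : Co B X₁ X₂ Y) {w : G} (hw : w ∈ CoU X₁ X₂ Y)
    (c : ∀ x ∈ CoU X₁ X₂ Y, Commute w x) : w ∈ CoW Y := by
  obtain ⟨α, β, γ, rfl⟩ := h.mem_U.1 hw
  have h1 := (c _ (h.mem_U.2 ⟨(1, 0), 0, 0, rfl⟩)).eq
  have h2 := (c _ (h.mem_U.2 ⟨0, (1, 0), 0, rfl⟩)).eq
  rw [h.P_comm, mul_eq_left, ← h.yz] at h1 h2
  have h3 := h.Y_inj h1
  have h4 := h.Y_inj h2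
  rw [pu_ml0', pu_ml1, zero_add] at h3
  rw [pu_ml0, pu_ml1', add_zero] at h4
  exact h.mem_W.2 ⟨γ, by rw [h3, h4, h.P_Y]⟩

/-- what an automorphism does to the coordinates -/
structure PuA (B : F) (Γ : F × F → F × F) : Prop where
  inj : Function.Injective Γ
  add : ∀ a b, Γ (a + b) = Γ a + Γ b
  ex : ∃ π : (F × F) × (F × F) → (F × F) × (F × F), Function.Surjective π ∧
    (∀ p, Γ (ml B p.1 p.2) = ml B (π p).1 (π p).2) ∧
    ∀ p q, Γ (ml B p.1 q.2 + ml B q.1 p.2) = ml B (π p).1 (π q).2 + ml B (π q).1 (π p).2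

theorem PuA.zero {Γ : F × F → F × F} (a : PuA B Γ) : Γ 0 = 0 := by simpa using a.add 0 0

theorem Co.exists_act (h : Co B X₁ X₂ Y) {n : G} (hn : n ∈ normalizer (CoU X₁ X₂ Y : Set G)) :
    ∃ Γ, (∀ γ, n * Y γ * n⁻¹ = Y (Γ γ)) ∧ PuA B Γ := by
  have cj : ∀ x ∈ CoU X₁ X₂ Y, n * x * n⁻¹ ∈ CoU X₁ X₂ Y := fun x hx => (mem_normalizer_iff.1 hn x).1 hx
  have cj' : ∀ x ∈ CoU X₁ X₂ Y, n⁻¹ * x * n ∈ CoU X₁ X₂ Y := fun x hx =>
    (mem_normalizer_iff''.1 hn x).1 hx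
  have hY : ∀ γ, ∃ γ', n * Y γ * n⁻¹ = Y γ' := fun γ => by
    have m := h.mem_W.2 ⟨γ, rfl⟩
    refine h.mem_W.1 (h.cen (cj _ (h.uw.le m)) fun x hx => ?_)
    have := (h.uw.cen _ m _ (cj' x hx)).eq
    calc n * Y γ * n⁻¹ * x = n * (Y γ * (n⁻¹ * x * n)) * n⁻¹ := by group
      _ = _ := by rw [this]; group
  choose Γ hΓ using hY
  have hP : ∀ p : (F × F) × (F × F), ∃ (q : (F × F) × (F × F)) (c : F × F),
      n * puP X₁ X₂ Y p.1 p.2 0 * n⁻¹ = puP X₁ X₂ Y q.1 q.2 c := fun p => by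
    obtain ⟨α, β, γ, e⟩ := h.mem_U.1 (cj _ (h.mem_U.2 ⟨p.1, p.2, 0, rfl⟩))
    exact ⟨(α, β), γ, e⟩
  choose π c hπ using hP
  refine ⟨Γ, hΓ, fun a b e => h.Y_inj ?_, fun a b => h.Y_inj ?_, π, fun q => ?_, fun p => h.Y_inj ?_,
    fun p q => h.Y_inj ?_⟩
  · have := (hΓ a).trans ((congrArg Y e).trans (hΓ b).symm)
    simpa using this
  · rw [← hΓ, h.y, h.y, ← hΓ, ← hΓ, conj_mul]
  · obtain ⟨α, β, γ, e⟩ := h.mem_U.1 (cj' _ (h.mem_U.2 ⟨q.1, q.2, 0, rfl⟩))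
    have e1 : puP X₁ X₂ Y q.1 q.2 0 = n * puP X₁ X₂ Y α β 0 * n⁻¹ * (n * Y γ * n⁻¹) := by
      rw [conj_mul, h.P_mulY, zero_add, ← e]; group
    rw [hπ (α, β), hΓ, h.P_mulY] at e1
    obtain ⟨h1, h2, -⟩ := h.P_inj e1
    exact ⟨(α, β), Prod.ext h1.symm h2.symm⟩
  · rw [← hΓ, ← h.P_sq _ _ 0, ← conj_mul, hπ, h.P_sq]
  · have e := congrArg (fun x => n * x * n⁻¹) (h.P_comm p.1 p.2 0 q.1 q.2 0)
    simp only [← conj_mul, hπ, hΓ] at e
    rw [h.P_comm, mul_left_cancel_iff] at e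
    exact e.symm

theorem pu_dom {B : F} (hB : ∀ r, r * r + r ≠ B) {a b : F × F} (e : ml B a b = 0) : a = 0 ∨ b = 0 := by
  revert B a b; decide +kernel

theorem PuA.semi {Γ : F × F → F × F} (a : PuA B Γ) (hB : ∀ r, r * r + r ≠ B) (α β : F × F) :
    ml B (Γ (ml B α β)) (Γ (1, 0)) = ml B (Γ α) (Γ β) := by
  obtain ⟨π, -, q, c⟩ := a.ex
  suffices ∃ A A' : F × F → F × F, ∀ α β, Γ (ml B α β) = ml B (A α) (A' β) by
    obtain ⟨A, A', e⟩ := this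
    have e1 := e α (1, 0)
    have e2 := e (1, 0) β
    have e3 := e (1, 0) (1, 0)
    rw [pu_ml1'] at e1
    rw [pu_ml1] at e2 e3
    rw [e, e1, e2, e3, pu_ml4]
  have c1 : ∀ α β, Γ (ml B α β) = ml B (π (α, 0)).1 (π (0, β)).2 + ml B (π (0, β)).1 (π (α, 0)).2 :=
    fun α β => by simpa only [pu_ml0, add_zero] using c (α, 0) (0, β)
  have c2 : ∀ α, ml B (π ((1, 0), 0)).1 (π (α, 0)).2 + ml B (π (α, 0)).1 (π ((1, 0), 0)).2 = 0 :=
    fun α => by simpa only [pu_ml0', add_zero, a.zero] using (c ((1, 0), 0) (α, 0)).symm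
  have c3 : ml B (π ((1, 0), 0)).1 (π ((1, 0), 0)).2 = 0 := by
    simpa only [pu_ml0', a.zero] using (q ((1, 0), 0)).symm
  have c4 : ¬ ((π ((1, 0), 0)).1 = 0 ∧ (π ((1, 0), 0)).2 = 0) := by
    rintro ⟨h1, h2⟩
    have := c1 (1, 0) (1, 0)
    rw [h1, h2, pu_ml0, pu_ml0', add_zero, pu_ml1, ← a.zero] at this
    exact absurd (a.inj this) (by decide)
  rcases pu_dom hB c3 with h1 | h1
  · refine ⟨fun α => (π (α, 0)).2, fun β => (π (0, β)).1, fun α β => ?_⟩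
    have := c2 α
    rw [h1, pu_ml0, zero_add] at this
    rw [c1, (pu_dom hB this).resolve_right fun h2 => c4 ⟨h1, h2⟩, pu_ml0, zero_add, pu_mlc]
  · refine ⟨fun α => (π (α, 0)).1, fun β => (π (0, β)).2, fun α β => ?_⟩
    have := c2 α
    rw [h1, pu_ml0', add_zero] at this
    rw [c1, (pu_dom hB this).resolve_left fun h2 => c4 ⟨h2, h1⟩, pu_ml0', add_zero]

/-- the ring homomorphism `θ ↦ r` -/
def puL (r : F) (γ : F × F) : F := γ.1 + r * γ.2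

theorem puL_add (r : F) (a b : F × F) : puL r (a + b) = puL r a + puL r b := by
  simp only [puL, Prod.fst_add, Prod.snd_add]; ring

theorem puL_ml {r : F} (hr : r * r + r = B) (a b : F × F) : puL r (ml B a b) = puL r a * puL r b := by
  have t : (2 : F) = 0 := by decide
  subst hr
  simp only [puL, ml]
  linear_combination (r * a.2 * b.2) * t

theorem pu_root {r : F} (hr : r * r + r = B) : (r + 1) * (r + 1) + (r + 1) = B := by
  revert r B; decide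

theorem pu_ideal {r : F} (hr : r * r + r = B) (a b γ : F × F) :
    (∃ q : (F × F) × (F × F), γ = ml B a q.2 + ml B q.1 b) ↔
      (puL r a = 0 ∧ puL r b = 0 → puL r γ = 0) ∧
        (puL (r + 1) a = 0 ∧ puL (r + 1) b = 0 → puL (r + 1) γ = 0) := by
  constructor
  · rintro ⟨q, rfl⟩
    constructor
    · rintro ⟨h1, h2⟩
      rw [puL_add, puL_ml hr, puL_ml hr, h1, h2, zero_mul, mul_zero, add_zero]
    · rintro ⟨h1, h2⟩
      rw [puL_add, puL_ml (pu_root hr), puL_ml (pu_root hr), h1, h2, zero_mul, mul_zero, add_zero]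
  · rintro ⟨h1, h2⟩
    have k : ∀ a b c : F, (a = 0 ∧ b = 0 → c = 0) → ∃ x y, a * y + x * b = c := by decide
    have s : ∀ r y y' : F, ∃ β, puL r β = y ∧ puL (r + 1) β = y' := by decide +kernel
    have i : ∀ (r : F) (β β' : F × F), puL r β = puL r β' → puL (r + 1) β = puL (r + 1) β' → β = β' := by
      decide +kernel
    obtain ⟨x, y, e⟩ := k _ _ _ h1
    obtain ⟨x', y', e'⟩ := k _ _ _ h2
    obtain ⟨α, a1, a2⟩ := s r x x'
    obtain ⟨β, b1, b2⟩ := s r y y'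
    refine ⟨(α, β), i r _ _ ?_ ?_⟩
    · rw [puL_add, puL_ml hr, puL_ml hr, a1, b1, e]
    · rw [puL_add, puL_ml (pu_root hr), puL_ml (pu_root hr), a2, b2, e']

theorem PuA.split {Γ : F × F → F × F} (a : PuA B Γ) {r : F} (hr : r * r + r = B) :
    (∀ γ, puL r γ = 0 ↔ puL r (Γ γ) = 0) ∨ ∀ γ, puL r γ = 0 ↔ puL (r + 1) (Γ γ) = 0 := by
  obtain ⟨π, hs, -, c⟩ := a.ex
  have k1 : ∀ r : F, puL r (r, 1) = 0 ∧ puL r 0 = 0 ∧ puL (r + 1) (r, 1) ≠ 0 ∧ puL r (1, 0) ≠ 0 := by decide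
  have i : ∀ (r : F) (β : F × F), puL r β = 0 → puL (r + 1) β = 0 → β = 0 := by decide +kernel
  have key : ∀ γ, puL r γ = 0 ↔
      (puL r (π ((r, 1), 0)).1 = 0 ∧ puL r (π ((r, 1), 0)).2 = 0 → puL r (Γ γ) = 0) ∧
        (puL (r + 1) (π ((r, 1), 0)).1 = 0 ∧ puL (r + 1) (π ((r, 1), 0)).2 = 0 →
          puL (r + 1) (Γ γ) = 0) := by
    intro γ
    rw [← pu_ideal hr]
    have := pu_ideal hr (r, 1) 0 γ
    simp only [(k1 r).1, (k1 r).2.1, (k1 r).2.2.1, and_self, forall_true_left, false_and,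
      IsEmpty.forall_iff, and_true] at this
    rw [← this]
    constructor
    · rintro ⟨q, rfl⟩
      exact ⟨π q, c ((r, 1), 0) q⟩
    · rintro ⟨q, e⟩
      obtain ⟨q, rfl⟩ := hs q
      exact ⟨q, a.inj (e.trans (c ((r, 1), 0) q).symm)⟩
  by_cases z1 : puL r (π ((r, 1), 0)).1 = 0 ∧ puL r (π ((r, 1), 0)).2 = 0 <;>
    by_cases z2 : puL (r + 1) (π ((r, 1), 0)).1 = 0 ∧ puL (r + 1) (π ((r, 1), 0)).2 = 0
  · obtain ⟨h1, h2⟩ := (key (r, 1)).1 (k1 r).1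
    have := a.inj ((i r _ (h1 z1) (h2 z2)).trans a.zero.symm)
    exact absurd (congrArg Prod.snd this) one_ne_zero
  · exact Or.inl fun γ => (key γ).trans ⟨fun h => h.1 z1, fun h => ⟨fun _ => h, fun h' => (z2 h').elim⟩⟩
  · exact Or.inr fun γ => (key γ).trans ⟨fun h => h.2 z2, fun h => ⟨fun h' => (z1 h').elim, fun _ => h⟩⟩
  · exact absurd ((key (1, 0)).2 ⟨fun h => (z1 h).elim, fun h => (z2 h).elim⟩) (k1 r).2.2.2

theorem pu_ring {N K : Type*} [Group N] [Field K] [Finite K] (Γ : N → K → K)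
    (hm : ∀ x y z, Γ (x * y) z = Γ x (Γ y z)) (hi : ∀ n, Function.Injective (Γ n))
    (ha : ∀ n a b, Γ n (a + b) = Γ n a + Γ n b) (hs : ∀ n a b, Γ n (a * b) * Γ n 1 = Γ n a * Γ n b) :
    ∃ f : N →* RingAut K, ∀ n z, f n z = Γ n z / Γ n 1 := by
  have h0 : ∀ n, Γ n 0 = 0 := fun n => by simpa using ha n 0 0
  have h1 : ∀ n, Γ n 1 ≠ 0 := fun n e => one_ne_zero (hi n (e.trans (h0 n).symm))
  let ψ : N → K →+* K := fun n =>
    { toFun := fun z => Γ n z / Γ n 1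
      map_one' := div_self (h1 n)
      map_mul' := fun a b => by
        have := h1 n
        field_simp
        exact hs n a b
      map_zero' := by rw [h0, zero_div]
      map_add' := fun a b => by rw [ha, add_div] }
  let e : N → RingAut K := fun n => RingEquiv.ofBijective (ψ n)
    (Finite.injective_iff_bijective.1 (ψ n).injective)
  refine ⟨MonoidHom.mk' e fun x y => RingEquiv.ext fun z => ?_, fun _ _ => rfl⟩
  change Γ (x * y) z / Γ (x * y) 1 = ψ x (Γ y z / Γ y 1)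
  rw [map_div₀, hm, hm]
  exact (div_div_div_cancel_right₀ (h1 x) _ _).symm

omit [Finite G] in
theorem pu_cyc {N S : Subgroup G} {C : Type*} [Group C] [IsCyclic C] (f : N →* C) {t : G} (tn : t ∈ N)
    (ht : f ⟨t, tn⟩ ≠ 1) (le : S ≤ N) :
    ∃ S₀ : Subgroup G, S₀ ≤ S ∧ ∃ _ : (S₀.subgroupOf S).Normal, IsCyclic (S ⧸ S₀.subgroupOf S) ∧
      ∀ m ∈ N, m * t * m⁻¹ ∉ S₀ := by
  have e : ((f.comp (inclusion le)).ker.map S.subtype).subgroupOf S = (f.comp (inclusion le)).ker :=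
    comap_map_eq_self_of_injective S.subtype_injective _
  refine ⟨(f.comp (inclusion le)).ker.map S.subtype, map_subtype_le _, ?_⟩
  rw [e]
  refine ⟨inferInstance, isCyclic_of_injective _ (QuotientGroup.kerLift_injective _), ?_⟩
  rintro m hm ⟨s, hs, e⟩
  have : f (⟨m, hm⟩ * ⟨t, tn⟩ * ⟨m, hm⟩⁻¹) = 1 := by
    rw [← show inclusion le s = ⟨m, hm⟩ * ⟨t, tn⟩ * ⟨m, hm⟩⁻¹ from Subtype.ext e]
    exact hs
  rw [map_mul, map_mul, map_inv, conj_eq_one_iff] at this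
  exact ht this

theorem Co.cyc (h : Co B X₁ X₂ Y) {t : G} (ht : ∀ γ, t * Y γ * t⁻¹ = Y (γ.1 + γ.2, γ.2))
    (tn : t ∈ normalizer (CoU X₁ X₂ Y : Set G)) {S : Subgroup G} (hS : IsPGroup 2 S)
    (le : S ≤ normalizer (CoU X₁ X₂ Y : Set G)) :
    ∃ S₀ : Subgroup G, S₀ ≤ S ∧ ∃ _ : (S₀.subgroupOf S).Normal, IsCyclic (S ⧸ S₀.subgroupOf S) ∧
      ∀ m ∈ normalizer (CoU X₁ X₂ Y : Set G), m * t * m⁻¹ ∉ S₀ := by
  classical
  choose Γ hΓ hA using fun n : normalizer (CoU X₁ X₂ Y : Set G) => h.exists_act n.2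
  have hm : ∀ x y γ, Γ (x * y) γ = Γ x (Γ y γ) := fun x y γ => h.Y_inj (by
    rw [← hΓ, ← hΓ, ← hΓ, coe_mul]; group)
  have htΓ : ∀ γ, Γ ⟨t, tn⟩ γ = (γ.1 + γ.2, γ.2) := fun γ => h.Y_inj (by rw [← hΓ, ht])
  by_cases hB : ∃ r, r * r + r = B
  · obtain ⟨r, hr⟩ := hB
    have rr : r + 1 + 1 = r := by rw [add_assoc, SA.two, add_zero]
    have k1 : ∀ r : F, puL r (r, 1) = 0 ∧ puL (r + 1) (r, 1) ≠ 0 ∧ puL r (r + 1, 1) ≠ 0 := by decide
    have ex : ∀ n, ¬ ((∀ γ, puL r γ = 0 ↔ puL r (Γ n γ) = 0) ∧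
        ∀ γ, puL r γ = 0 ↔ puL (r + 1) (Γ n γ) = 0) := by
      rintro n ⟨h1, h2⟩
      obtain ⟨γ, e⟩ := Finite.surjective_of_injective (hA n).inj (r, 1)
      exact (k1 r).2.1 (e ▸ (h2 γ).1 ((h1 γ).2 (e.symm ▸ (k1 r).1)))
    have p1 : ∀ n, (∀ γ, puL r γ = 0 ↔ puL r (Γ n γ) = 0) →
        ∀ γ, puL (r + 1) γ = 0 ↔ puL (r + 1) (Γ n γ) = 0 := fun n h1 =>
      ((hA n).split (pu_root hr)).resolve_right fun h2 =>
        (k1 r).2.1 ((h2 _).2 (rr.symm ▸ (h1 _).1 (k1 r).1))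
    have p2 : ∀ n, (∀ γ, puL r γ = 0 ↔ puL (r + 1) (Γ n γ) = 0) →
        ∀ γ, puL (r + 1) γ = 0 ↔ puL r (Γ n γ) = 0 := fun n h1 => by
      have := ((hA n).split (pu_root hr)).resolve_left fun h2 =>
        (k1 r).2.1 ((h2 _).2 ((h1 _).1 (k1 r).1))
      rwa [rr] at this
    refine pu_cyc (C := ℤˣ) (MonoidHom.mk'
      (fun n => if ∀ γ, puL r γ = 0 ↔ puL r (Γ n γ) = 0 then 1 else -1) fun x y => ?_) tn ?_ le
    · rcases (hA x).split hr with hx | hx <;> rcases (hA y).split hr with hy | hy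
      · rw [if_pos hx, if_pos hy, if_pos fun γ => by rw [hm, ← hx, ← hy], one_mul]
      · rw [if_pos hx, if_neg fun h' => ex y ⟨h', hy⟩, if_neg fun h' => ex _ ⟨h', fun γ => by
          rw [hm, ← p1 x hx, ← hy]⟩, one_mul]
      · rw [if_pos hy, if_neg fun h' => ex x ⟨h', hx⟩, if_neg fun h' => ex _ ⟨h', fun γ => by
          rw [hm, ← hx, ← hy]⟩, mul_one]
      · rw [if_neg fun h' => ex x ⟨h', hx⟩, if_neg fun h' => ex y ⟨h', hy⟩, if_pos fun γ => by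
          rw [hm, ← p2 x hx, ← hy], neg_mul_neg, one_mul]
    · rw [MonoidHom.mk'_apply, if_neg fun h' => (k1 r).2.2 (by
        have := (h' (r, 1)).1 (k1 r).1
        rwa [htΓ] at this)]
      decide
  · have hB' : ∀ r, r * r + r ≠ B := fun r e => hB ⟨r, e⟩
    have : Fact (∀ r : F, r ^ 2 ≠ B + 1 * r) := ⟨fun r e => hB' r (by
      rw [← sq, e, one_mul, add_assoc, SA.two, add_zero])⟩
    let e := QuadraticAlgebra.equivProd B (1 : F)
    have : Finite (QuadraticAlgebra F B 1) := Finite.of_equiv _ e.symm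
    have := isCyclic_ringAut (QuadraticAlgebra F B 1)
    have em : ∀ a b, e (a * b) = ml B (e a) (e b) := fun a b => by
      refine Prod.ext ?_ ?_
      · change (a * b).re = a.re * b.re + B * (a.im * b.im)
        rw [QuadraticAlgebra.re_mul, mul_assoc]
      · change (a * b).im = a.re * b.im + a.im * b.re + a.im * b.im
        rw [QuadraticAlgebra.im_mul, one_mul]
    have ea : ∀ a b, e (a + b) = e a + e b := fun a b => rfl
    obtain ⟨f, hf⟩ := pu_ring (fun n z => e.symm (Γ n (e z)))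
      (fun x y z => by rw [hm, e.apply_symm_apply])
      (fun n => e.symm.injective.comp ((hA n).inj.comp e.injective))
      (fun n a b => e.injective (by simp only [ea, e.apply_symm_apply, (hA n).add]))
      (fun n a b => e.injective (by
        simp only [em, e.apply_symm_apply]
        exact (hA n).semi hB' _ _))
    refine pu_cyc f tn (fun h1 => ?_) le
    have h2 := hf ⟨t, tn⟩ (e.symm (0, 1))
    have h3 : e.symm (Γ ⟨t, tn⟩ (e 1)) = 1 := by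
      rw [htΓ, Equiv.symm_apply_eq]
      exact Prod.ext (add_zero _) rfl
    rw [h1, h3, div_one, e.apply_symm_apply, htΓ] at h2
    exact absurd (e.symm.injective h2) (by decide)

theorem UW.cj {U W : Subgroup G} (h : UW U W) (m : G) :
    UW (U.map (MulAut.conj m).toMonoidHom) (W.map (MulAut.conj m).toMonoidHom) := by
  refine ⟨map_mono h.le, ?_, ?_, ?_, ?_, ?_⟩
  · rw [card_map_of_injective (f := (MulAut.conj m).toMonoidHom) (MulAut.conj m).injective, h.cU]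
  · rw [card_map_of_injective (f := (MulAut.conj m).toMonoidHom) (MulAut.conj m).injective, h.cW]
  · rintro _ ⟨w, hw, rfl⟩ _ ⟨x, hx, rfl⟩
    exact (h.cen w hw x hx).map _
  · rintro _ ⟨w, hw, rfl⟩
    rw [← map_mul, h.el w hw, map_one]
  · rintro _ ⟨x, hx, rfl⟩
    exact ⟨x * x, h.sq x hx, map_mul _ _ _⟩

end Cfsg.Agent.LS
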