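import Cfsg.Agent.LS.Spl1
import Cfsg.Agent.LS.Pure

/-! Project LS (notes/LS.md): involutions of `DD` normalising a group of the shape `UW`. -/

set_option autoImplicit false
set_option linter.unusedSectionVars false

namespace Cfsg.Agent.LS

open Subgroup H29
open scoped commutatorElement

section
variable {G : Type*} [Group G] [Finite G]

theorem iib_cnt (A : Subgroup G) (t : G) (Z : Subgroup G) (h : ∀ a ∈ A, ⁅t, a⁆ ∈ Z) :
    Nat.card A ≤ Nat.card Z * Nat.card (A ⊓ centralizer {t} : Subgroup G) := by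
  rw [← card_mul_index ((centralizer {t}).subgroupOf A), ← inf_subgroupOf_left,
    Nat.card_congr (subgroupOfEquivOfLe (inf_le_left : A ⊓ centralizer {t} ≤ A)).toEquiv, mul_comm,
    inf_subgroupOf_left]
  refine Nat.mul_le_mul_right _ (Nat.card_le_card_of_injective
    (fun q : A ⧸ (centralizer {t}).subgroupOf A => (⟨⁅t, (q.out : G)⁆, h _ q.out.2⟩ : Z)) fun q q' e => ?_)
  rw [← q.out_eq', ← q'.out_eq', QuotientGroup.eq, mem_subgroupOf, mem_centralizer_singleton_iff]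
  have e' : ⁅t, (q.out : G)⁆ = ⁅t, (q'.out : G)⁆ := congrArg Subtype.val e
  rw [coe_mul, coe_inv]
  generalize (q.out : G) = a at e'
  generalize (q'.out : G) = b at e'
  calc a⁻¹ * b * t = a⁻¹ * ⁅t, b⁆⁻¹ * t * b := by rw [commutatorElement_def]; group
    _ = _ := by rw [← e', commutatorElement_def]; group

theorem iib_map {A B : Type*} [Group A] [Finite A] [Group B] (f : A →* B) (V : Subgroup A) {t : A}
    (h : ∀ x, f x = 1 → x = 1 ∨ x = t) : Nat.card V ≤ 2 * Nat.card (V.map f) := by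
  classical
  rw [← relIndex_ker, ← card_mul_index (f.ker.subgroupOf V)]
  refine Nat.mul_le_mul_right _ ((Nat.card_le_card_of_injective
    (fun x : f.ker.subgroupOf V => decide (((x : V) : A) = 1)) fun x y e => ?_).trans (by simp))
  simp only [decide_eq_decide] at e
  refine Subtype.ext (Subtype.ext ?_)
  rcases h _ x.2 with h1 | h1 <;> rcases h _ y.2 with h2 | h2
  exacts [h1.trans h2.symm, h1.trans (e.1 h1).symm, (e.2 h2).trans h2.symm, h1.trans h2.symm]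

omit [Finite G] in
theorem iib_inv {t : G} (t2 : t * t = 1) (a : G) : t * ⁅t, a⁆ * t⁻¹ = ⁅t, a⁆⁻¹ := by
  calc t * ⁅t, a⁆ * t⁻¹ = t * t * (a * t * a⁻¹ * t⁻¹) * (t * a * (t * t)⁻¹ * a⁻¹ * t⁻¹) := by
        rw [commutatorElement_def]; group
    _ = _ := by rw [t2, commutatorElement_def]; group

/-- an involution acting on an elementary abelian section -/
theorem iib_half {A B : Subgroup G} {t : G} (hBA : B ≤ A) (hn : ∀ a ∈ A, ∀ b ∈ B, a * b * a⁻¹ ∈ B)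
    (t2 : t * t = 1) (nA : t ∈ normalizer (A : Set G)) (nB : t ∈ normalizer (B : Set G))
    (sq : ∀ a ∈ A, a * a ∈ B) :
    ∃ A1 : Subgroup G, (∀ a, a ∈ A1 ↔ a ∈ A ∧ ⁅t, a⁆ ∈ B) ∧ (∀ a ∈ A, ⁅t, a⁆ ∈ A1) ∧
      Nat.card A * Nat.card B ≤ Nat.card A1 * Nat.card A1 ∧
      (Nat.card A1 * Nat.card A1 ≤ Nat.card A * Nat.card B →
        ∀ v ∈ A1, ∃ a ∈ A, ∃ b ∈ B, v = ⁅t, a⁆ * b) := by
  have : (B.subgroupOf A).Normal := ⟨fun b hb a => hn a a.2 b hb⟩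
  let π := QuotientGroup.mk' (B.subgroupOf A)
  have p1 : ∀ x : A, π x = 1 ↔ (x : G) ∈ B := fun x => QuotientGroup.eq_one_iff (N := B.subgroupOf A) x
  have q2 : ∀ q : A ⧸ B.subgroupOf A, q * q = 1 := fun q => by
    obtain ⟨a, rfl⟩ := QuotientGroup.mk'_surjective (B.subgroupOf A) q
    rw [← map_mul]
    exact (p1 _).2 (sq a a.2)
  have cm : ∀ q q' : A ⧸ B.subgroupOf A, q * q' = q' * q := fun q q' => by
    rw [← inv_eq_of_mul_eq_one_right (q2 (q * q')), mul_inv_rev, inv_eq_of_mul_eq_one_right (q2 q),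
      inv_eq_of_mul_eq_one_right (q2 q')]
  have tA : ∀ a ∈ A, t * a * t⁻¹ ∈ A := fun a ha => (mem_normalizer_iff.1 nA a).1 ha
  have cA : ∀ a ∈ A, ⁅t, a⁆ ∈ A := fun a ha => A.mul_mem (tA a ha) (A.inv_mem ha)
  let φ : A →* A ⧸ B.subgroupOf A := MonoidHom.mk' (fun a => π ⟨⁅t, (a : G)⁆, cA a a.2⟩) fun a b => by
    have e : (⟨⁅t, ((a * b : A) : G)⁆, cA _ (a * b).2⟩ : A) =
        ⟨⁅t, (a : G)⁆, cA a a.2⟩ * (a * ⟨⁅t, (b : G)⁆, cA b b.2⟩ * a⁻¹) := Subtype.ext (by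
      simp only [coe_mul, coe_inv, commutatorElement_def]; group)
    rw [e, map_mul, map_mul, map_mul, cm (π a), map_inv, mul_inv_cancel_right]
  have m1 : ∀ a, a ∈ φ.ker.map A.subtype ↔ a ∈ A ∧ ⁅t, a⁆ ∈ B := fun a =>
    ⟨by rintro ⟨x, hx, rfl⟩; exact ⟨x.2, (p1 _).1 hx⟩, fun h => ⟨⟨a, h.1⟩, (p1 _).2 h.2, rfl⟩⟩
  have c1 : ∀ a ∈ A, ⁅t, ⁅t, a⁆⁆ ∈ B := fun a ha => by
    rw [commutatorElement_def t ⁅t, a⁆, iib_inv t2]
    exact sq _ (A.inv_mem (cA a ha))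
  have r1 : φ.range ≤ φ.ker.map π := by
    rintro _ ⟨a, rfl⟩
    exact ⟨⟨⁅t, (a : G)⁆, cA a a.2⟩, (p1 _).2 (c1 a a.2), rfl⟩
  have k1 : π.ker ≤ φ.ker := fun x hx => (p1 _).2
    (B.mul_mem ((mem_normalizer_iff.1 nB _).1 ((p1 x).1 hx)) (B.inv_mem ((p1 x).1 hx)))
  have n1 : Nat.card A = Nat.card φ.ker * Nat.card φ.range := by rw [← index_ker, card_mul_index]
  have n2 : Nat.card φ.ker = Nat.card B * Nat.card (φ.ker.map π) := by
    rw [← relIndex_ker, ← card_mul_index (π.ker.subgroupOf φ.ker),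
      Nat.card_congr (subgroupOfEquivOfLe k1).toEquiv, QuotientGroup.ker_mk',
      Nat.card_congr (subgroupOfEquivOfLe hBA).toEquiv]
    rfl
  have n3 : Nat.card (φ.ker.map A.subtype) = Nat.card φ.ker := card_map_of_injective A.subtype_injective
  have n4 := card_le_of_le r1
  refine ⟨φ.ker.map A.subtype, m1, fun a ha => (m1 _).2 ⟨cA a ha, c1 a ha⟩, ?_, fun hle v hv => ?_⟩
  · rw [n3, n1, mul_assoc]
    refine Nat.mul_le_mul_left _ ?_
    rw [n2, mul_comm]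
    exact Nat.mul_le_mul_left _ n4
  · rw [n3, n1, mul_assoc] at hle
    have h1 := Nat.le_of_mul_le_mul_left hle Nat.card_pos
    rw [n2, mul_comm] at h1
    have h2 := eq_of_le_of_card_ge r1 (Nat.le_of_mul_le_mul_right h1 Nat.card_pos)
    obtain ⟨x, hx, rfl⟩ := hv
    obtain ⟨a, ha⟩ : π x ∈ φ.range := h2 ▸ mem_map_of_mem π hx
    refine ⟨a, a.2, ⁅t, (a : G)⁆⁻¹ * x, (p1 ((⟨_, cA a a.2⟩ : A)⁻¹ * x)).1 ?_, ?_⟩
    · rw [map_mul, map_inv, ← ha]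
      exact inv_mul_cancel _
    · rw [mul_inv_cancel_left]
      rfl

theorem UW.iib_two {U W : Subgroup G} (h : UW U W) : IsPGroup 2 U :=
  IsPGroup.of_card (n := 12) (by rw [h.cU]; norm_num)

omit [Finite G] in
theorem UW.iib_four {U W : Subgroup G} (h : UW U W) {x : G} (hx : x ∈ U) : x ^ 2 ^ 2 = 1 := by
  rw [show 2 ^ 2 = 2 + 2 from rfl, pow_add, pow_two, h.el _ (h.sq x hx)]

omit [Finite G] in
theorem UW.iib_comm {U W : Subgroup G} (h : UW U W) {x y : G} (hx : x ∈ U) (hy : y ∈ U) : ⁅x, y⁆ ∈ W := by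
  have e : ⁅x, y⁆ = (x * y) * (x * y) * (y⁻¹ * (x * x)⁻¹ * y) * (y * y)⁻¹ := by
    rw [commutatorElement_def]; group
  rw [e, mul_assoc y⁻¹, (h.cen _ (W.inv_mem (h.sq x hx)) y hy).eq, inv_mul_cancel_left]
  exact W.mul_mem (W.mul_mem (h.sq _ (U.mul_mem hx hy)) (W.inv_mem (h.sq x hx))) (W.inv_mem (h.sq y hy))

/-- the subgroup `U₁` -/
theorem UW.iib_half {U W : Subgroup G} (h : UW U W) {t : G} (t2 : t * t = 1)
    (nU : t ∈ normalizer (U : Set G)) (nW : t ∈ normalizer (W : Set G)) :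
    ∃ U1 : Subgroup G, (∀ a, a ∈ U1 ↔ a ∈ U ∧ ⁅t, a⁆ ∈ W) ∧ (∀ a ∈ U, ⁅t, a⁆ ∈ U1) ∧
      256 ≤ Nat.card U1 ∧ Nat.card U1 ≤ Nat.card (W ⊓ centralizer {t} : Subgroup G) *
        Nat.card (U ⊓ centralizer {t} : Subgroup G) ∧
      (Nat.card U1 ≤ 256 → ∀ v ∈ U1, ∃ a ∈ U, ∃ b ∈ W, v = ⁅t, a⁆ * b) := by
  obtain ⟨U1, h1, h2, h3, h4⟩ := LS.iib_half h.le (fun a ha b hb => by
    rw [← (h.cen b hb a ha).eq, mul_inv_cancel_right]; exact hb) t2 nU nW h.sq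
  rw [h.cU, h.cW] at h3 h4
  refine ⟨U1, h1, h2, by nlinarith, ?_, fun hle => h4 (by nlinarith)⟩
  refine (iib_cnt U1 t (W ⊓ centralizer {t}) fun a ha => ⟨((h1 a).1 ha).2, ?_⟩).trans
    (Nat.mul_le_mul_left _ (card_le_of_le (inf_le_inf_right _ fun a ha => ((h1 a).1 ha).1)))
  have := iib_inv t2 a
  rw [inv_eq_of_mul_eq_one_right (h.el _ ((h1 a).1 ha).2), mul_inv_eq_iff_eq_mul] at this
  exact mem_centralizer_singleton_iff.2 this.symm

theorem UW.iib_w0 {U W : Subgroup G} (h : UW U W) {t : G} (t2 : t * t = 1)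
    (nW : t ∈ normalizer (W : Set G)) : 4 ≤ Nat.card (W ⊓ centralizer {t} : Subgroup G) := by
  obtain ⟨W1, h1, -, h3, -⟩ := LS.iib_half (A := W) (B := ⊥) bot_le (fun a ha b hb => by
    rw [mem_bot.1 hb]; simp) t2 nW (normalizer_eq_top (⊥ : Subgroup G) ▸ mem_top t) h.el
  have : W1 = W ⊓ centralizer {t} := Subgroup.ext fun a => by
    rw [h1, mem_inf, mem_bot, mem_centralizer_singleton_iff, commutatorElement_eq_one_iff_mul_comm,
      eq_comm]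
  rw [h.cW, card_bot, this] at h3
  nlinarith

end

namespace Dat

variable {G : Type*} [Group G] [Finite G] {δ : Dat G}

theorem Kk.iib_lam (k : δ.Kk 0 0) {ρ : F} (h : Lam δ.e ρ) : δ.r ρ = 1 ∨ δ.r ρ = δ.t := by
  rcases h with h | rfl | rfl
  · rw [k.e_false] at h; cases h
  · exact Or.inl k.ok.r_zero
  · exact Or.inr rfl

theorem Kk.iib_cR (k : δ.Kk 0 0) {x : G} (hx : x ∈ Kc δ.ι) (c : Commute x δ.t) :
    ∃ o, δ.Od o ∧ (x = o ∨ x = o * δ.t) := by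
  obtain ⟨o, ρ, ho, hρ, rfl⟩ := k.ok.cR hx fun ρ hρ => by
    rcases k.iib_lam hρ with h | h <;> rw [h]
    exacts [Commute.one_right _, c]
  refine ⟨o, ho, ?_⟩
  rcases k.iib_lam hρ with h | h <;> rw [h]
  exacts [Or.inl (mul_one _), Or.inr rfl]

theorem Kk.iib_twoK (k : δ.Kk 0 0) {x : G} (hx : x ∈ Kc δ.ι) (c : Commute x δ.t) (e : x ^ 2 ^ 2 = 1) :
    x = 1 ∨ x = δ.t := by
  obtain ⟨o, ho, rfl | rfl⟩ := k.iib_cR hx c
  · exact Or.inl (ho.eq_one (Commute.one_left _) (one_pow _) (by rwa [one_mul]))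
  · have c' : Commute o δ.t := ho.2.1 1 (lam_one _)
    rw [ho.eq_one c'.symm (n := 2) (by rw [show 2 ^ 2 = 2 + 2 from rfl, pow_add, pow_two, k.ok.t_sq,
      mul_one]) (by rwa [← c'.eq]), one_mul]
    exact Or.inr rfl

theorem Kk.iib_DDt (k : δ.Kk 0 0) {d : G} (hd : DD δ.ι d) : ∃ m, d = m * δ.t * m⁻¹ := by
  obtain ⟨d2, d1, g, hg⟩ := hd
  obtain ⟨m, -, ρ, hρ, e⟩ := k.ok.syl _ hg (by rw [conj_mul, d2, mul_one, mul_inv_cancel])
  rcases k.iib_lam hρ with h | h <;> rw [h] at e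
  · rw [conj_eq_one_iff, conj_eq_one_iff] at e
    exact (d1 e).elim
  · exact ⟨(m * g)⁻¹, by rw [← e]; group⟩

theorem Kk.iib_C0 (k : δ.Kk 0 0) (U : Subgroup G) : U ⊓ centralizer {δ.t} ≤ Nn δ.ι := fun _ hx =>
  k.ok.cent_r (lam_one _) one_ne_zero (mem_centralizer_singleton_iff.1 hx.2)

theorem Kk.iib_tnot (k : δ.Kk 0 0) {U W : Subgroup G} (h : UW U W) : δ.t ∉ U := by
  intro ht
  have h1 := iib_cnt U δ.t W fun a ha => h.iib_comm ht ha
  obtain ⟨p, l, m, f, -, f1, -⟩ := k.ok.hy.sa (h.iib_two.to_le inf_le_left) (k.iib_C0 U)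
  have hW : W ≤ U ⊓ centralizer {δ.t} := fun w hw =>
    ⟨h.le hw, mem_centralizer_singleton_iff.2 (h.cen w hw _ ht).eq⟩
  have kr : ∀ x, f x = 1 → x = 1 ∨ x = ⟨δ.t, ht, mem_centralizer_singleton_iff.2 rfl⟩ := fun x hx =>
    (k.iib_twoK ((f1 x).1 hx) (mem_centralizer_singleton_iff.1 x.2.2) (h.iib_four x.2.1)).imp Subtype.ext
      Subtype.ext
  have h2 := iib_map f ⊤ kr
  have h3 := iib_map f (W.subgroupOf _) kr
  rw [card_top] at h2
  rw [Nat.card_congr (subgroupOfEquivOfLe hW).toEquiv, h.cW] at h3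
  rw [h.cU, h.cW] at h1
  refine SA.C8 (map_mono (f := f) (le_top : W.subgroupOf _ ≤ ⊤)) (by omega) (by omega) ?_ ?_
  · rintro _ ⟨w, hw, rfl⟩
    rw [← map_mul, show w * w = 1 from Subtype.ext (h.el _ hw), map_one]
  · rintro _ ⟨w, hw, rfl⟩ _ ⟨x, -, rfl⟩
    exact Commute.map (Subtype.ext (h.cen _ hw _ x.2.1).eq : Commute w x) f

theorem Kk.noDD (k : δ.Kk 0 0) {U W : Subgroup G} (h : UW U W) {d : G} (hd : d ∈ U) : ¬ DD δ.ι d :=
  fun h' => by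
  obtain ⟨m, rfl⟩ := k.iib_DDt h'
  exact (k.cj m).iib_tnot h hd

theorem Kk.iib_sa (k : δ.Kk 0 0) {U W : Subgroup G} (h : UW U W) :
    ∃ (p : P) (l m : Fˣ) (f : (U ⊓ centralizer {δ.t} : Subgroup G) →* SA), Function.Injective f ∧
      ∀ y, (f y).inT → y * y = 1 →
        (y : G) = (δ.cj (δ.ι p)).U (l * (f y).a) (m * (f y).b) (l * m * (f y).c) := by
  obtain ⟨p, l, m, f, -, f1, f2⟩ := k.ok.hy.sa (h.iib_two.to_le inf_le_left) (k.iib_C0 U)
  refine ⟨p, l, m, f, (injective_iff_map_eq_one f).2 fun x hx => Subtype.ext ?_, fun y hy y2 => ?_⟩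
  · exact (k.iib_twoK ((f1 x).1 hx) (mem_centralizer_singleton_iff.1 x.2.2) (h.iib_four x.2.1)).resolve_right
      fun e => k.iib_tnot h (e ▸ x.2.1)
  · obtain ⟨x, hx, e⟩ := f2 y hy
    rw [tw_apply] at e
    have e2 : (δ.cj (δ.ι p)).U (l * (f y).a) (m * (f y).b) (l * m * (f y).c) =
        δ.ι ((MulAut.conj p * dg l m) (u (f y).a (f y).b (f y).c)) := by
      rw [cj_U, MulAut.mul_apply, dg_u, MulAut.conj_apply, map_mul, map_mul, map_inv]
      rfl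
    rw [e2]
    generalize (MulAut.conj p * dg l m) (u (f y).a (f y).b (f y).c) = q at e ⊢
    have cq : Commute x (δ.ι q) := mem_Kc.1 hx q
    have y2' : (y : G) * y = 1 := congrArg Subtype.val y2
    have e3 : δ.ι (q * q) * (x * x) = 1 := by rw [map_mul, ← cq.mul_mul_mul_comm, ← e, y2']
    have q2 : q * q = 1 := k.ok.hy.LK (by
      rw [eq_inv_of_mul_eq_one_left e3]; exact inv_mem (mul_mem hx hx))
    rw [q2, map_one, one_mul] at e3
    have ct : Commute x δ.t := by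
      have c1 : Commute (y : G) δ.t := mem_centralizer_singleton_iff.1 y.2.2
      rw [← inv_mul_cancel_left (δ.ι q) x, ← e]
      exact (k.ok.r_L 1 q).symm.inv_left.mul_left c1
    rcases k.iib_twoK hx ct (by rw [show 2 ^ 2 = 2 + 2 from rfl, pow_add, pow_two, e3, mul_one]) with h1 | h1
    · rw [e, h1, mul_one]
    · refine (k.noDD h y.2.1 ?_).elim
      rw [e, ← cq.eq, h1]
      exact k.ok.DD_rl (lam_one _) one_ne_zero q2

theorem iib_sq (a b c : F) (h : a * b = 0) :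
    (⟨a, b, c, false, false⟩ : SA) * ⟨a, b, c, false, false⟩ = 1 := by
  revert a b c; decide

theorem iib_un (l m : Fˣ) (c : F) : (l : F) * m * (((l * m)⁻¹ : Fˣ) * c) = c :=
  Units.mul_inv_cancel_left (l * m) c

theorem OK.iib_tL (ok : δ.OK) (p : P) : Commute δ.t (δ.ι p) := ok.r_L 1 p

theorem OK.iib_tU (ok : δ.OK) (a b c : F) : Commute δ.t (δ.U a b c) := ok.r_L 1 _

theorem Tr.iib_t {x : G} {μ σ : F} (h : δ.Tr x μ σ) : x * δ.t * x⁻¹ = δ.t * δ.U μ 0 σ := by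
  have := h.2 1 (lam_one _)
  rwa [one_mul, one_mul] at this

theorem Kk.iib_big (k : δ.Kk 0 0) {U W : Subgroup G} (h : UW U W)
    (h1 : 64 ≤ Nat.card (U ⊓ centralizer {δ.t} : Subgroup G))
    (h2 : 4 ≤ Nat.card (W ⊓ centralizer {δ.t} : Subgroup G)) :
    Nat.card (U ⊓ centralizer {δ.t} : Subgroup G) ≤ 64 ∧
      Nat.card (W ⊓ centralizer {δ.t} : Subgroup G) ≤ 4 ∧
      ∃ p, ∀ a b c, (δ.cj (δ.ι p)).U a b c ∈ U := by
  obtain ⟨p, l, m, f, fi, f1⟩ := k.iib_sa h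
  have cr : Nat.card f.range = Nat.card (U ⊓ centralizer {δ.t} : Subgroup G) :=
    Nat.card_congr (MonoidHom.ofInjective fi).toEquiv.symm
  have hZ : ∀ w : (U ⊓ centralizer {δ.t} : Subgroup G), (w : G) ∈ W → (f w).inZ := fun w hw => by
    refine SA.C64 (by rw [← map_mul, show w * w = 1 from Subtype.ext (h.el _ hw), map_one])
      (lt_of_lt_of_le (by omega) (card_le_of_le (H := f.range) ?_))
    rintro _ ⟨x, rfl⟩
    rw [mem_centralizer_singleton_iff, ← map_mul, ← map_mul]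
    exact congrArg f (Subtype.ext (h.cen _ hw _ x.2.1).eq.symm)
  let ψ : (W ⊓ centralizer {δ.t} : Subgroup G) → F := fun w => (f ⟨w, h.le w.2.1, w.2.2⟩).c
  have ψi : Function.Injective ψ := fun w w' e => by
    obtain ⟨a1, a2, a3, a4⟩ := hZ ⟨w, h.le w.2.1, w.2.2⟩ w.2.1
    obtain ⟨b1, b2, b3, b4⟩ := hZ ⟨w', h.le w'.2.1, w'.2.2⟩ w'.2.1
    exact Subtype.ext (congrArg Subtype.val (fi (SA.ext (a1.trans b1.symm) (a2.trans b2.symm) e
      (a3.trans b3.symm) (a4.trans b4.symm))) :)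
  have cF : Nat.card F = 4 := by rw [Nat.card_eq_fintype_card, F4.card_eq]
  obtain ⟨w, hw⟩ := (ψi.bijective_of_nat_card_le (cF ▸ h2)).2 ω
  have hw' : f ⟨w, h.le w.2.1, w.2.2⟩ = ⟨0, 0, ω, false, false⟩ := by
    obtain ⟨a1, a2, a3, a4⟩ := hZ ⟨w, h.le w.2.1, w.2.2⟩ w.2.1
    exact SA.ext a1 a2 hw a3 a4
  have hT := SA.CT (X := f.range) (cr ▸ h1) (by
    rintro _ ⟨x, rfl⟩
    rw [← map_mul]
    exact hZ _ (h.sq _ x.2.1)) (by
    rintro _ ⟨x, rfl⟩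
    refine SA.j_of_comm ?_
    rw [← hw']
    exact Commute.map (Subtype.ext (h.cen _ w.2.1 _ x.2.1).eq.symm :
      Commute x ⟨w, h.le w.2.1, w.2.2⟩) f)
  refine ⟨?_, cF ▸ Nat.card_le_card_of_injective ψ ψi, p, fun a b c => ?_⟩
  · rw [← cr]
    refine (Nat.card_le_card_of_injective (fun x : f.range => ((x : SA).a, (x : SA).b, (x : SA).c))
      fun x y e => ?_).trans (by rw [Nat.card_prod, Nat.card_prod, cF])
    obtain ⟨a1, a2⟩ := (hT x).1 x.2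
    obtain ⟨b1, b2⟩ := (hT y).1 y.2
    simp only [Prod.mk.injEq] at e
    exact Subtype.ext (SA.ext e.1 e.2.1 e.2.2 (a1.trans b1.symm) (a2.trans b2.symm))
  · have key : ∀ a b c : F, a * b = 0 → (δ.cj (δ.ι p)).U (l * a) (m * b) (l * m * c) ∈ U := by
      intro a b c hab
      obtain ⟨y, hy⟩ := (hT ⟨a, b, c, false, false⟩).2 ⟨rfl, rfl⟩
      have := f1 y (hy ▸ ⟨rfl, rfl⟩) (fi (by
        rw [map_mul, hy, map_one]
        exact iib_sq a b c hab))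
      rw [hy] at this
      exact this ▸ y.2.1
    have := U.mul_mem (key 0 (m⁻¹ * b) 0 (zero_mul _)) (key (l⁻¹ * a) 0 ((l * m)⁻¹ * c) (mul_zero _))
    rw [iib_un] at this
    simpa [U_mul] using this

theorem Kk.iib_end (k : δ.Kk 0 0) {U W : Subgroup G} (h : UW U W) (nU : δ.t ∈ normalizer (U : Set G))
    (nW : δ.t ∈ normalizer (W : Set G)) (hW : ∀ w, w ∈ W ↔ ∃ a c, w = δ.U a 0 c)
    (h0 : U ⊓ centralizer {δ.t} ≤ W) : False := by
  have ok := k.ok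
  obtain ⟨U1, m1, m2, n1, n2, n3⟩ := h.iib_half ok.t_sq nU nW
  have n4 := card_le_of_le h0
  have n5 := card_le_of_le (inf_le_left : W ⊓ centralizer {δ.t} ≤ W)
  rw [h.cW] at n4 n5
  have ti : δ.t⁻¹ = δ.t := inv_eq_of_mul_eq_one_right ok.t_sq
  have tW : ∀ w ∈ W, Commute δ.t w := fun w hw => by
    obtain ⟨a, c, rfl⟩ := (hW w).1 hw
    exact ok.r_L 1 _
  have s1 : ∀ v ∈ U1, v * v = 1 → v ∈ W := by
    intro v hv v2
    obtain ⟨a, ha, b, hb, rfl⟩ := n3 (by nlinarith) v hv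
    have c := h.cen b hb _ ((m1 _).1 (m2 a ha)).1
    rw [← c.symm.mul_mul_mul_comm, h.el b hb, mul_one] at v2
    refine W.mul_mem (h0 ⟨((m1 _).1 (m2 a ha)).1, mem_centralizer_singleton_iff.2 ?_⟩) hb
    have := iib_inv ok.t_sq a
    rw [inv_eq_of_mul_eq_one_right v2, mul_inv_eq_iff_eq_mul] at this
    exact this.symm
  have s2 : ∀ v ∈ U1, v ∉ W → ∃ x μ σ, δ.Ex x μ σ ∧ v = x * δ.t := by
    intro v hv hvW
    obtain ⟨hvU, hc⟩ := (m1 v).1 hv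
    obtain ⟨μ, σ, e⟩ := (hW _).1 hc
    obtain ⟨x, hx⟩ := ok.exists_Ex μ σ
    have e1 : x * δ.t * x⁻¹ = δ.t * δ.U μ 0 σ := hx.1.1.iib_t
    have e2 : v * δ.t * v⁻¹ = δ.t * δ.U μ 0 σ := by
      rw [← e, commutatorElement_def, ti]
      simp only [← mul_assoc, ok.t_sq, one_mul]
    have c1 : Commute (x⁻¹ * v) δ.t := by
      calc x⁻¹ * v * δ.t = x⁻¹ * (v * δ.t * v⁻¹) * v := by group
        _ = _ := by rw [e2, ← e1]; group
    obtain ⟨a, c, κ, hκ, e3⟩ := ok.hy.cenV (ok.cent_r (lam_one _) one_ne_zero c1) fun a c =>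
      (hx.1.1.1 a c).inv_left.mul_left (h.cen _ ((hW _).2 ⟨a, c, rfl⟩) v hvU).symm
    have c2 : Commute κ δ.t := by
      rw [← inv_mul_cancel_left (δ.ι (u a 0 c)) κ, ← e3]
      exact (ok.r_L 1 _).symm.inv_left.mul_left c1
    have hx' := ok.Ex_mul hx (ok.Ex_V a c)
    have e4 : v = x * δ.U a 0 c * κ := by rw [mul_assoc, Dat.U, ← e3, mul_inv_cancel_left]
    generalize x * δ.U a 0 c = y at hx' e4
    have y2 := k.Ex_sq hx'
    obtain ⟨o, ho, rfl | rfl⟩ := k.iib_cR hκ c2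
    · have := ho.eq_one (hx'.1.2.1 _ ho) hx'.1.2.2 (n := 2) (e4 ▸ h.iib_four hvU)
      rw [this, mul_one] at e4
      exact (hvW (s1 v hv (e4 ▸ y2))).elim
    · have c3 : Commute o δ.t := ho.2.1 1 (lam_one _)
      rw [c3.eq, ← mul_assoc] at e4
      have e5 : y * δ.t * (y * δ.t) = δ.U (μ + 0) 0 (σ + 0) := by
        have e6 := hx'.1.1.iib_t
        rw [inv_eq_of_mul_eq_one_right y2] at e6
        rw [← mul_assoc, e6, (ok.iib_tU _ _ _).eq, mul_assoc, ok.t_sq, mul_one]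
      have := ho.eq_one ((hx'.1.2.1 _ ho).mul_left c3.symm) (n := 2) (by
        rw [show 2 ^ 2 = 2 + 2 from rfl, pow_add, pow_two, e5]
        exact h.el _ ((hW _).2 ⟨_, _, rfl⟩)) (e4 ▸ h.iib_four hvU)
      rw [this, mul_one] at e4
      exact ⟨y, _, _, hx', e4⟩
  have WU : W ≤ U1 := fun w hw => (m1 w).2 ⟨h.le hw, by
    rw [(tW w hw).commutator_eq]; exact W.one_mem⟩
  obtain ⟨v, hv, hvW⟩ : ∃ v ∈ U1, v ∉ W := by
    by_contra! hc
    have := card_le_of_le (show U1 ≤ W from hc)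
    rw [h.cW] at this
    omega
  have i2 : (W.subgroupOf U1).index = 2 := index_eq_two_iff.2 ⟨⟨v, hv⟩, fun b => by
    by_cases hb : (b : G) ∈ W
    · exact Or.inr ⟨hb, fun h' => hvW ((W.mul_mem_cancel_left hb).1 h')⟩
    · refine Or.inl ⟨s1 (b * v) (U1.mul_mem b.2 hv) ?_, hb⟩
      obtain ⟨x, μ, σ, hx, e⟩ := s2 b b.2 hb
      obtain ⟨x', μ', σ', hx', rfl⟩ := s2 v hv hvW
      have e1 : x' * δ.t * x'⁻¹ = δ.t * δ.U μ' 0 σ' := hx'.1.1.iib_t
      have e2 : (b : G) * (x' * δ.t) = x * δ.U μ' 0 σ' * x' := by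
        calc (b : G) * (x' * δ.t) = x * δ.t * (x' * δ.t * x'⁻¹) * x' := by rw [e]; group
          _ = _ := by rw [e1]; simp only [mul_assoc]; rw [← mul_assoc δ.t, ok.t_sq, one_mul]
      exact e2 ▸ k.Ex_sq (ok.Ex_mul (ok.Ex_mul hx (ok.Ex_V _ _)) hx')⟩
  have := card_mul_index (W.subgroupOf U1)
  rw [i2, Nat.card_congr (subgroupOfEquivOfLe WU).toEquiv, h.cW] at this
  omega

theorem Kk.iib_t (k : δ.Kk 0 0) {U W : Subgroup G} (h : UW U W) (nU : δ.t ∈ normalizer (U : Set G))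
    (nW : δ.t ∈ normalizer (W : Set G)) : ∃ p, ∀ a b c, (δ.cj (δ.ι p)).U a b c ∈ U := by
  have ok := k.ok
  have w0 := h.iib_w0 ok.t_sq nW
  by_cases h1 : 64 ≤ Nat.card (U ⊓ centralizer {δ.t} : Subgroup G)
  · exact (k.iib_big h h1 w0).2.2
  exfalso
  obtain ⟨U1, -, -, n1, n2, -⟩ := h.iib_half ok.t_sq nU nW
  obtain ⟨p, l, m, f, fi, f1⟩ := k.iib_sa h
  have le : W ⊓ centralizer {δ.t} ≤ U ⊓ centralizer {δ.t} := inf_le_inf_right _ h.le
  have c0 : Nat.card (((W ⊓ centralizer {δ.t}).subgroupOf _).map f) =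
      Nat.card (W ⊓ centralizer {δ.t} : Subgroup G) := by
    rw [card_map_of_injective fi, Nat.card_congr (subgroupOfEquivOfLe le).toEquiv]
  have el : ∀ w ∈ ((W ⊓ centralizer {δ.t}).subgroupOf _).map f, w * w = 1 := by
    rintro _ ⟨w, hw, rfl⟩
    rw [← map_mul, show w * w = 1 from Subtype.ext (h.el _ hw.1), map_one]
  have c8 : ¬ (32 ≤ Nat.card (U ⊓ centralizer {δ.t} : Subgroup G) ∧
      8 ≤ Nat.card (W ⊓ centralizer {δ.t} : Subgroup G)) := fun h' => by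
    refine SA.C8 (map_mono (f := f) (le_top : (W ⊓ centralizer {δ.t}).subgroupOf _ ≤ ⊤))
      (by rw [card_map_of_injective fi, card_top]; exact h'.1) (c0 ▸ h'.2) el ?_
    rintro _ ⟨w, hw, rfl⟩ _ ⟨x, -, rfl⟩
    exact Commute.map (Subtype.ext (h.cen _ hw.1 _ x.2.1).eq : Commute w x) f
  have d1 := card_dvd_of_le (inf_le_left : W ⊓ centralizer {δ.t} ≤ W)
  have d2 := card_dvd_of_le (inf_le_left : U ⊓ centralizer {δ.t} ≤ U)
  rw [h.cW] at d1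
  rw [h.cU] at d2
  have d3 : Nat.card (W ⊓ centralizer {δ.t} : Subgroup G) = 16 ∧
      Nat.card (U ⊓ centralizer {δ.t} : Subgroup G) = 16 := by
    have n3 := n1.trans n2
    have d4 := Nat.le_of_dvd (by norm_num) d1
    have : ∀ x : Fin 17, ∀ y : Fin 64, 16 % x.1 = 0 → 4096 % y.1 = 0 → ¬(32 ≤ y.1 ∧ 8 ≤ x.1) →
      256 ≤ x.1 * y.1 → x.1 = 16 ∧ y.1 = 16 := by decide +kernel
    exact this ⟨_, Nat.lt_succ_of_le d4⟩ ⟨_, not_le.1 h1⟩ (Nat.mod_eq_zero_of_dvd d1)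
      (Nat.mod_eq_zero_of_dvd d2) c8 n3
  have e1 : W ⊓ centralizer {δ.t} = W := eq_of_le_of_card_ge inf_le_left (by rw [d3.1, h.cW])
  have e2 : W ⊓ centralizer {δ.t} = U ⊓ centralizer {δ.t} := eq_of_le_of_card_ge le (by rw [d3.1, d3.2])
  have e3 : (δ.cj (δ.ι p)).t = δ.t := by
    change δ.ι p * δ.t * (δ.ι p)⁻¹ = δ.t
    rw [← (ok.iib_tL p).eq, mul_inv_cancel_right]
  have hw : ∀ w (hw : w ∈ W), w ∈ U ⊓ centralizer {δ.t} := fun w hw => e2 ▸ e1.symm ▸ hw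
  have hw' : ∀ w (h : w ∈ W), f ⟨w, hw w h⟩ ∈ ((W ⊓ centralizer {δ.t}).subgroupOf _).map f :=
    fun w h => mem_map_of_mem f ⟨h, (hw w h).2⟩
  rcases SA.C16 (c0 ▸ d3.1.ge) el with hV | hV
  · refine (k.cj (δ.ι p)).iib_end h (e3 ▸ nU) (e3 ▸ nW) (fun w => ⟨fun h' => ?_, ?_⟩)
      (by rw [e3, ← e2]; exact inf_le_left)
    · obtain ⟨a1, a2⟩ := (hV _).1 (hw' w h')
      have := f1 _ a1 (Subtype.ext (h.el w h'))
      rw [a2, mul_zero] at this
      exact ⟨_, _, this⟩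
    · rintro ⟨a, c, rfl⟩
      obtain ⟨y, hy, e⟩ := (hV ⟨l⁻¹ * a, 0, (l * m)⁻¹ * c, false, false⟩).2 ⟨⟨rfl, rfl⟩, rfl⟩
      have := f1 y (e ▸ ⟨rfl, rfl⟩) (Subtype.ext (h.el _ hy.1))
      simp only [e, iib_un] at this
      simpa [this] using hy.1
  · refine (k.cj (δ.ι p)).sw.iib_end h (e3 ▸ nU) (e3 ▸ nW) (fun w => ⟨fun h' => ?_, ?_⟩)
      (by rw [show (δ.cj (δ.ι p)).sw.t = δ.t from e3, ← e2]; exact inf_le_left)
    · obtain ⟨a1, a2⟩ := (hV _).1 (hw' w h')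
      have := f1 _ a1 (Subtype.ext (h.el w h'))
      rw [a2, mul_zero] at this
      exact ⟨_, _, by rw [sw_U, mul_zero, add_zero]; exact this⟩
    · rintro ⟨a, c, rfl⟩
      obtain ⟨y, hy, e⟩ := (hV ⟨0, m⁻¹ * a, (l * m)⁻¹ * c, false, false⟩).2 ⟨⟨rfl, rfl⟩, rfl⟩
      have := f1 y (e ▸ ⟨rfl, rfl⟩) (Subtype.ext (h.el _ hy.1))
      simp only [e, iib_un] at this
      simpa [this, sw_U] using hy.1

theorem Kk.iib (k : δ.Kk 0 0) {U W : Subgroup G} (h : UW U W) {d : G} (hd : DD δ.ι d)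
    (nU : d ∈ normalizer (U : Set G)) (nW : d ∈ normalizer (W : Set G)) :
    ∃ m, d = m * δ.t * m⁻¹ ∧ ∀ a b c, m * δ.U a b c * m⁻¹ ∈ U := by
  obtain ⟨m, rfl⟩ := k.iib_DDt hd
  obtain ⟨p, hp⟩ := (k.cj m).iib_t h nU nW
  refine ⟨m * δ.ι p, ?_, fun a b c => ?_⟩
  · rw [mul_assoc m (δ.ι p), ← (k.ok.iib_tL p).eq]
    group
  · have := hp a b c
    rw [cj_U, cj_U, cj_ι] at this
    convert this using 1
    group

end Dat

end Cfsg.Agent.LS
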