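import Cfsg.Agent.LS.IIb
import Cfsg.Agent.LS.Spl2

set_option autoImplicit false
set_option linter.unusedVariables false
set_option linter.unusedSectionVars false

namespace Cfsg.Agent.LS

open Subgroup H29
open scoped commutatorElement

namespace Dat

variable {G : Type*} [Group G] [Finite G] {δ : Dat G}

theorem OK.iic_t (ok : δ.OK) {v d : G} : ⁅δ.t, v⁆ = d ↔ v * δ.t * v⁻¹ = δ.t * d := by
  rw [← inv_mul_eq_iff_eq_mul, commutatorElement_def, inv_eq_of_mul_eq_one_right ok.t_sq, mul_assoc, mul_assoc,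
    mul_assoc]

theorem Wy.iic_t {y : G} {σ : F} (h : δ.Wy y σ) : y * δ.t * y⁻¹ = δ.t * δ.C σ := by
  have := h.1.2.1 1 (lam_one _)
  rwa [one_mul] at this

theorem iic_cen {x y t : G} (e : y * t * y⁻¹ = x * t * x⁻¹) : Commute (x⁻¹ * y) t := by
  calc x⁻¹ * y * t = x⁻¹ * (y * t * y⁻¹) * y := by group
    _ = _ := by rw [e]; group

theorem Kk.iic_uw (k : δ.Kk 0 0) : UW δ.Ug δ.Wg := by
  obtain ⟨B, X₁, X₂, Y, h, e1, e2, -⟩ := k.co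
  exact e1 ▸ e2 ▸ h.uw

section
variable (k : δ.Kk 0 0) {U W : Subgroup G} (h : UW U W) (nW : δ.t ∈ normalizer (W : Set G))
  (hT : ∀ a b c, δ.U a b c ∈ U)
include k h nW hT

theorem Kk.iic_u0 {v : G} (hv : v ∈ U) (c : Commute v δ.t) : ∃ a b c, v = δ.U a b c := by
  have le : M49.Tg.map δ.ι ≤ U ⊓ centralizer {δ.t} := by
    rintro _ ⟨_, ⟨a, b, c, rfl⟩, rfl⟩
    exact ⟨hT a b c, mem_centralizer_singleton_iff.2 (k.ok.iib_tU a b c).symm⟩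
  have c1 : Nat.card (M49.Tg.map δ.ι) = 64 := (card_map_of_injective k.ok.hy.inj).trans M49.card_Tg
  obtain ⟨_, ⟨a, b, c, rfl⟩, rfl⟩ := (eq_of_le_of_card_ge le (c1 ▸ (k.iib_big h (c1 ▸ card_le_of_le le)
    (h.iib_w0 k.ok.t_sq nW)).1)).ge ⟨hv, mem_centralizer_singleton_iff.2 c⟩
  exact ⟨a, b, _, rfl⟩

theorem Kk.iic_w0 {w : G} (hw : w ∈ W) (c : Commute w δ.t) : ∃ c, w = δ.C c := by
  obtain ⟨a, b, c, rfl⟩ := k.iic_u0 h nW hT (h.le hw) c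
  have e1 := (h.cen _ hw _ (hT 1 0 0)).eq
  have e2 := (h.cen _ hw _ (hT 0 1 0)).eq
  rw [U_mul, U_mul] at e1 e2
  obtain rfl : b = 0 := by simpa using (k.ok.U_inj e1).2.2
  obtain rfl : a = 0 := by simpa using (k.ok.U_inj e2).2.2
  exact ⟨_, rfl⟩

theorem Kk.iic_c {v : G} (hv : ⁅δ.t, v⁆ ∈ W) : ∃ σ, v * δ.t * v⁻¹ = δ.t * δ.C σ := by
  have := iib_inv k.ok.t_sq v
  rw [inv_eq_of_mul_eq_one_right (h.el _ hv), mul_inv_eq_iff_eq_mul] at this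
  exact (k.iic_w0 h nW hT hv this.symm).imp fun σ => k.ok.iic_t.1

theorem Kk.iic_W : W = δ.Wg := by
  have ok := k.ok
  refine eq_of_le_of_card_ge (fun w hw => ok.mem_Wg.2 ?_) (by rw [h.cW, ok.card_Wg])
  obtain ⟨σ, e⟩ := k.iic_c h nW hT (W.mul_mem ((mem_normalizer_iff.1 nW w).1 hw) (W.inv_mem hw))
  obtain ⟨y, hy⟩ := ok.exists_Wy σ
  have c1 := iic_cen (e.trans hy.iic_t.symm)
  obtain ⟨c, κ, hκ, e1⟩ := ok.hy.cenT (ok.cent_r (lam_one _) one_ne_zero c1) fun a b c =>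
    (hy.1.1 a b c).inv_left.mul_left (h.cen w hw _ (hT a b c))
  have c2 : Commute κ δ.t := by
    rw [← inv_mul_cancel_left (δ.ι (u 0 0 c)) κ, ← e1]
    exact (ok.r_L 1 _).symm.inv_left.mul_left c1
  have hy' := ok.Wy_mul hy (ok.Wy_zero.2 ⟨c, rfl⟩)
  have e2 : w = y * δ.C c * κ := by rw [mul_assoc, Dat.C, Dat.U, ← e1, mul_inv_cancel_left]
  rw [add_zero] at hy'
  generalize y * δ.C c = y at hy' e2
  obtain ⟨o, ho, rfl | rfl⟩ := k.iib_cR hκ c2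
  · rw [e2, ho.eq_one (hy'.1.2.2.1 _ ho) hy'.1.2.2.2 (n := 2) (e2 ▸ h.iib_four (h.le hw)), mul_one]
    exact ⟨σ, hy'⟩
  · have c3 : Commute o δ.t := ho.2.1 1 (lam_one _)
    rw [c3.eq, ← mul_assoc] at e2
    have e5 : y * δ.t * (y * δ.t) = δ.C σ := by
      have e6 := hy'.iic_t
      rw [inv_eq_of_mul_eq_one_right (ok.Wy_sq hy')] at e6
      rw [← mul_assoc, e6, Dat.C, (ok.iib_tU _ _ _).eq, mul_assoc, ok.t_sq, mul_one]
    rw [ho.eq_one ((hy'.1.2.2.1 _ ho).mul_left c3.symm) (n := 2) (by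
      rw [show 2 ^ 2 = 2 + 2 from rfl, pow_add, pow_two, e5, C_sq]) (e2 ▸ h.iib_four (h.le hw)), mul_one] at e2
    obtain rfl := ok.C_inj ((e5.symm.trans (e2 ▸ h.el w hw)).trans δ.C_zero.symm)
    obtain ⟨c, rfl⟩ := ok.Wy_zero.1 hy'
    refine (k.noDD h (h.le hw) ?_).elim
    rw [e2, Dat.C, ← (ok.iib_tU _ _ _).eq]
    exact ok.DD_rl (lam_one _) one_ne_zero (LA.c_sq c)

theorem Kk.iic_u1 {v : G} (hv : v ∈ U) (c : ⁅δ.t, v⁆ ∈ W) : ∃ y ∈ W, ∃ a b c, v = y * δ.U a b c := by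
  obtain ⟨σ, e⟩ := k.iic_c h nW hT c
  obtain ⟨y, hy⟩ := k.ok.exists_Wy σ
  have yW : y ∈ W := k.iic_W h nW hT ▸ k.ok.mem_Wg.2 ⟨σ, hy⟩
  obtain ⟨a, b, c, e1⟩ := k.iic_u0 h nW hT (U.mul_mem (U.inv_mem (h.le yW)) hv) (iic_cen (e.trans hy.iic_t.symm))
  exact ⟨y, yW, a, b, c, eq_mul_of_inv_mul_eq e1⟩

theorem Kk.iic_V {v y : G} (hv : v ∈ U) (hy : y ∈ W) {μ c : F} (e : ⁅δ.t, v⁆ = y * δ.U μ 0 c) :
    v ∈ δ.Ug ∨ v * δ.t ∈ δ.Ug := by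
  have ok := k.ok
  obtain ⟨σ, hy'⟩ := ok.mem_Wg.1 (k.iic_W h nW hT ▸ hy)
  have e0 : δ.t * y * (δ.t * y) = δ.C σ := by
    have e6 := hy'.iic_t
    rw [inv_eq_of_mul_eq_one_right (ok.Wy_sq hy')] at e6
    rw [mul_assoc, ← mul_assoc y, e6, ← mul_assoc, ok.t_sq, one_mul]
  have e1 := ok.iic_t.1 e
  have e2 : δ.C σ = δ.C 0 := by
    have := congrArg (fun x => x * x) e1
    simp only [conj_mul, ok.t_sq, mul_one, mul_inv_cancel] at this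
    rw [← mul_assoc δ.t y, ← pow_two, ((ok.iib_tU _ _ _).mul_left (hy'.1.1 _ _ _)).mul_pow, pow_two, pow_two, e0,
      U_mul, SA.two, SA.two, SA.two, mul_zero, add_zero, U_zero, mul_one] at this
    rw [← this, C_zero]
  obtain rfl := ok.C_inj e2
  obtain ⟨c0, rfl⟩ := ok.Wy_zero.1 hy'
  rw [(δ.C_U _ _ _ _).eq, U_C] at e e1
  generalize c + c0 = σ at e e1
  obtain ⟨x, hx⟩ := ok.exists_Ex μ σ
  have c1 := iic_cen (e1.trans hx.1.1.iib_t.symm)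
  have zW : ∀ c, δ.C c ∈ W := fun c => by
    have := h.sq _ (hT 1 c 0)
    rwa [U_mul, SA.two, SA.two, add_zero, zero_add, one_mul] at this
  obtain ⟨a, b, c, κ, hκ, e3⟩ := ok.hy.cV (ok.cent_r (lam_one _) one_ne_zero c1)
    (fun c => (hx.1.1.1 0 c).inv_left.mul_left (h.cen _ (zW c) v hv).symm) fun a => by
      have w1 := h.iib_comm hv (hT a 0 0)
      have c2 : Commute (δ.U μ 0 σ) (δ.U a 0 0) := by rw [Commute, SemiconjBy, U_mul, U_mul]; simp [add_comm]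
      obtain ⟨d, e4⟩ := k.iic_w0 h nW hT w1 (Commute.symm (mul_inv_eq_iff_eq_mul.1 (by
        calc _ = ⁅δ.t, v⁆ * (v * (δ.t * δ.U a 0 0) * δ.t⁻¹ * v⁻¹) * ⁅δ.t, v⁆⁻¹ * (δ.t * δ.U a 0 0 * δ.t⁻¹)⁻¹ := by
              simp only [commutatorElement_def]; group
          _ = δ.U μ 0 σ * ⁅v, δ.U a 0 0⁆ * (δ.U a 0 0 * (δ.U μ 0 σ)⁻¹) * (δ.U a 0 0)⁻¹ := by
              rw [e, (ok.iib_tU a 0 0).eq, commutatorElement_def]; group
          _ = _ := by rw [← c2.inv_left.eq, ← (h.cen _ w1 _ (hT μ 0 σ)).eq]; group)))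
      refine ⟨0 + d, ?_⟩
      calc _ = x⁻¹ * (⁅v, δ.U a 0 0⁆ * δ.U a 0 0) * x := by rw [commutatorElement_def, Dat.U]; group
        _ = _ := by rw [e4, (δ.C_U _ _ _ _).eq, U_C, (hx.1.1.1 _ _).inv_left.eq, inv_mul_cancel_right]; rfl
  have c2 : Commute κ δ.t := by
    rw [← inv_mul_cancel_left (δ.ι (u a b c)) κ, ← e3]
    exact (ok.r_L 1 _).symm.inv_left.mul_left c1
  have e4 : v = x * δ.U a b c * κ := by rw [mul_assoc, Dat.U, ← e3, mul_inv_cancel_left]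
  have x1 : x * δ.U a b c ∈ δ.Ug := mul_mem (subset_closure ⟨μ, σ, .inl hx⟩) (k.U_Ug a b c)
  have x2 : δ.CO (x * δ.U a b c) := hx.1.2.1.mul (δ.CO_L _)
  generalize x * δ.U a b c = x at e4 x1 x2
  obtain ⟨o, ho, rfl | rfl⟩ := k.iib_cR hκ c2
  · rw [e4, ho.eq_one (x2 _ ho) (k.iic_uw.iib_four x1) (e4 ▸ h.iib_four hv), mul_one]
    exact .inl x1
  · have c3 : Commute o δ.t := ho.2.1 1 (lam_one _)
    rw [c3.eq, ← mul_assoc] at e4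
    rw [ho.eq_one ((x2 _ ho).mul_left c3.symm) (n := 3) (by
      have := k.iic_uw.iib_four (mul_mem x1 ((mem_normalizer_iff.1 k.t_Ug x).1 x1))
      rwa [inv_eq_of_mul_eq_one_right ok.t_sq, ← mul_assoc, ← mul_assoc, mul_assoc (x * δ.t), ← pow_two,
        ← pow_mul] at this) (by rw [← e4, pow_succ, pow_mul, h.iib_four hv, one_pow]), mul_one] at e4
    exact .inr (by rwa [e4, mul_assoc, ok.t_sq, mul_one])

end

theorem Kk.iic (k : δ.Kk 0 0) {U W : Subgroup G} (h : UW U W) (nU : δ.t ∈ normalizer (U : Set G))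
    (nW : δ.t ∈ normalizer (W : Set G)) (hT : ∀ a b c, δ.U a b c ∈ U) : U = δ.Ug := by
  have ok := k.ok
  have hg := k.iic_uw
  have eW := k.iic_W h nW hT
  refine eq_of_le_of_card_ge (fun v hv => ?_) (by rw [h.cU, hg.cU])
  obtain ⟨U1, m1, m2, -, n2, n3⟩ := h.iib_half ok.t_sq nU nW
  have c1 : 64 ≤ Nat.card (U ⊓ centralizer {δ.t} : Subgroup G) := by
    rw [← M49.card_Tg, ← card_map_of_injective ok.hy.inj]
    refine card_le_of_le ?_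
    rintro _ ⟨_, ⟨a, b, c, rfl⟩, rfl⟩
    exact ⟨hT a b c, mem_centralizer_singleton_iff.2 (k.ok.iib_tU a b c).symm⟩
  obtain ⟨c2, c3, -⟩ := k.iib_big h c1 (h.iib_w0 ok.t_sq nW)
  obtain ⟨y, hy, a, b, c, e⟩ := k.iic_u1 h nW hT ((m1 _).1 (m2 v hv)).1 ((m1 _).1 (m2 v hv)).2
  obtain ⟨v1, h1, y1, hy1, e1⟩ := n3 (n2.trans (Nat.mul_le_mul c3 c2)) (δ.U a 0 0)
    ((m1 _).2 ⟨hT _ _ _, by rw [(ok.iib_tU _ _ _).commutator_eq]; exact W.one_mem⟩)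
  have h2 := U.mul_mem (U.inv_mem h1) hv
  have e2 : v = v1 * (v1⁻¹ * v) := (mul_inv_cancel_left _ _).symm
  generalize v1⁻¹ * v = v2 at h2 e2
  have h3 := ((m1 _).1 (m2 v2 h2)).1
  have e3 : ⁅δ.t, v1⁆ = y1⁻¹ * δ.U a 0 0 := by
    rw [e1, ← (h.cen _ hy1 _ ((m1 _).1 (m2 v1 h1)).1).eq, inv_mul_cancel_left]
  have A1 := k.iic_V h nW hT h1 (W.inv_mem hy1) e3
  have A2 := k.sw.iic_V h nW (fun a b c => δ.sw_U a b c ▸ hT _ _ _) h2
    (W.mul_mem (W.inv_mem (h.iib_comm h1 h3)) (W.mul_mem hy hy1)) (μ := b) (c := c + a * b) (by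
      change ⁅δ.t, v2⁆ = _
      have e4 : δ.U a b c = δ.U a 0 0 * δ.U 0 b (c + a * b) := by
        rw [U_mul, add_zero, zero_add, zero_add, add_assoc, SA.two, add_zero]
      rw [sw_U, mul_zero, add_zero]
      calc _ = ⁅v1, ⁅δ.t, v2⁆⁆⁻¹ * (⁅δ.t, v1⁆⁻¹ * ⁅δ.t, v1 * v2⁆) := by simp only [commutatorElement_def]; group
        _ = ⁅v1, ⁅δ.t, v2⁆⁆⁻¹ * ((δ.U a 0 0)⁻¹ * (y1 * y * δ.U a 0 0) * δ.U 0 b (c + a * b)) := by
          rw [← e2, e, e3, e4]; group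
        _ = _ := by
          rw [(h.cen _ (W.mul_mem hy1 hy) _ (hT a 0 0)).eq, (h.cen _ hy1 _ (h.le hy)).eq]; group)
  rw [sw_Ug, show δ.sw.t = δ.t from rfl] at A2
  have cj : ∀ {x}, x ∈ δ.Ug → δ.t⁻¹ * x * δ.t ∈ δ.Ug := fun hx => (mem_normalizer_iff''.1 k.t_Ug _).1 hx
  have A : v ∈ δ.Ug ∨ v * δ.t ∈ δ.Ug := by
    rw [e2]
    rcases A1 with A1 | A1 <;> rcases A2 with A2 | A2
    · exact .inl (mul_mem A1 A2)
    · exact .inr (mul_assoc v1 _ _ ▸ mul_mem A1 A2)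
    · exact .inr (by simpa [mul_assoc] using mul_mem A1 (cj A2))
    · exact .inl (by simpa [mul_assoc, ok.t_sq] using mul_mem A1 (cj A2))
  refine A.resolve_right fun hx => k.iib_tnot h ?_
  obtain ⟨y, hy, a, b, c, e⟩ := k.iic_u1 hg (eW ▸ nW) k.U_Ug hx (by
    have := W.mul_mem (h.sq v hv) (W.inv_mem (eW ▸ hg.sq _ hx))
    rw [← eW]
    have e4 := (hg.cen _ (eW ▸ h.sq v hv) _ hx).eq
    have e5 : ⁅δ.t, v * δ.t⁆ = v * v * (v * δ.t * (v * δ.t))⁻¹ := by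
      calc ⁅δ.t, v * δ.t⁆ = (v * δ.t)⁻¹ * (v * (δ.t * δ.t) * v * (v * δ.t)) * (v * δ.t * (v * δ.t))⁻¹ := by
            rw [commutatorElement_def]; group
        _ = v * v * (v * δ.t * (v * δ.t))⁻¹ := by rw [ok.t_sq, mul_one, e4]; group
    rwa [e5])
  exact (U.mul_mem_cancel_left hv).1 (e ▸ U.mul_mem (h.le (eW ▸ hy)) (hT a b c))

end Dat

end Cfsg.Agent.LS
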